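import Cfsg.Agent.Chev.G2Singer.Rigid
import Cfsg.Agent.SLn.Basic
import Cfsg.Agent.Chev.Parabolic

/-!
# The blocks `V`, `V'`, `W` of the long root subgroups of `G₂`

The long root elements act on `V = ⟨e₉, e₄, e₃⟩` by transvections, on `V' = ⟨e₂, e₇, e₈⟩` contragrediently, and on
the complement `W` as the adjoint representation.
-/

set_option autoImplicit false
set_option maxRecDepth 100000
set_option linter.unusedSectionVars false

namespace CfsgLib.Chev.G2Singer

open Cfsg.Lie CfsgLib.Chev Matrix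

universe u

variable {F : Type u} [Field F]

local notation "Idx₂" => ChevalleyDatum.Idx chevG2

/-- The roots of `V`. -/
def vroot : Fin 3 → Fin chevG2.nroots := ![⟨9, by decide⟩, ⟨4, by decide⟩, ⟨3, by decide⟩]

/-- The roots of `V'`. -/
def vroot' : Fin 3 → Fin chevG2.nroots := ![⟨2, by decide⟩, ⟨7, by decide⟩, ⟨8, by decide⟩]

/-- The block of a root. -/
def rblk (r : ℕ) : ℕ := if r = 9 ∨ r = 4 ∨ r = 3 then 0 else if r = 2 ∨ r = 7 ∨ r = 8 then 1 else 2

/-- The block of a coordinate. -/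
def blk : Idx₂ → ℕ := Sum.elim (fun _ => 2) (fun r => rblk r)

/-- The matrix respects the blocks. -/
def BlockOK (g : GL Idx₂ F) : Prop := Sys.Blk blk (g : Matrix Idx₂ Idx₂ F)

/-- The matrix maps `V` into `V`. -/
def PresV (g : GL Idx₂ F) : Prop :=
  ∀ (a : Idx₂) (j : Fin 3), blk a ≠ 0 → (g : Matrix Idx₂ Idx₂ F) a (Sum.inr (vroot j)) = 0

theorem blk_vroot : (∀ i : Fin 3, rblk (vroot i) = 0) ∧ (∀ i : Fin 3, rblk (vroot' i) = 1) ∧
    (∀ r : Fin chevG2.nroots, rblk r = 0 → ∃ i : Fin 3, vroot i = r) ∧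
    (∀ r : Fin chevG2.nroots, rblk r = 1 → ∃ i : Fin 3, vroot' i = r) ∧
    Function.Injective vroot ∧ Function.Injective vroot' := by
  refine ⟨by decide, by decide, by decide, by decide, by decide, by decide⟩

theorem BlockOK.presV {g : GL Idx₂ F} (h : BlockOK g) : PresV g := fun a j ha =>
  h a _ (by rw [show blk (Sum.inr (vroot j) : Idx₂) = 0 from blk_vroot.1 j]; exact ha)

theorem blockOK_one : BlockOK (1 : GL Idx₂ F) := fun a b h => by
  rw [Units.val_one, Matrix.one_apply, if_neg fun e => h (congrArg blk e)]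

theorem BlockOK.mul {g h : GL Idx₂ F} (hg : BlockOK g) (hh : BlockOK h) : BlockOK (g * h) := by
  rw [BlockOK, Units.val_mul]; exact SG.blk_mul hg hh

/-- The block on `V`. -/
def VM (g : GL Idx₂ F) : Matrix (Fin 3) (Fin 3) F :=
  Matrix.of fun i j => (g : Matrix Idx₂ Idx₂ F) (Sum.inr (vroot i)) (Sum.inr (vroot j))

/-- The block on `V'`. -/
def VM' (g : GL Idx₂ F) : Matrix (Fin 3) (Fin 3) F :=
  Matrix.of fun i j => (g : Matrix Idx₂ Idx₂ F) (Sum.inr (vroot' i)) (Sum.inr (vroot' j))

theorem VM_one : VM (1 : GL Idx₂ F) = 1 := by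
  ext i j
  simp [VM, Matrix.one_apply, blk_vroot.2.2.2.2.1.eq_iff]

theorem VM'_one : VM' (1 : GL Idx₂ F) = 1 := by
  ext i j
  simp [VM', Matrix.one_apply, blk_vroot.2.2.2.2.2.eq_iff]

theorem sum_block {k : ℕ} {v : Fin 3 → Fin chevG2.nroots} (hv : Function.Injective v)
    (hb : ∀ i, rblk (v i) = k) (hs : ∀ r : Fin chevG2.nroots, rblk r = k → ∃ i, v i = r) (hk : k ≠ 2)
    (f : Idx₂ → F) (hf : ∀ c, blk c ≠ k → f c = 0) :
    ∑ c, f c = ∑ i, f (Sum.inr (v i)) := by
  classical
  rw [Fintype.sum_sum_type,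
    Finset.sum_eq_zero (f := fun a : Fin chevG2.rank => f (Sum.inl a)) (fun c _ => hf _ (Ne.symm hk)), zero_add]
  refine ((Finset.sum_image (f := fun r => f (Sum.inr r)) (g := v) (s := Finset.univ)
    fun a _ b _ h => hv h).symm.trans ?_).symm
  refine Finset.sum_subset (Finset.subset_univ _) fun r _ hr => hf _ fun e => hr ?_
  obtain ⟨i, hi⟩ := hs r e
  exact Finset.mem_image.2 ⟨i, Finset.mem_univ _, hi⟩

theorem VM_mul (g : GL Idx₂ F) {h : GL Idx₂ F} (hh : PresV h) : VM (g * h) = VM g * VM h := by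
  ext i j
  simp only [VM, Matrix.of_apply, Units.val_mul, Matrix.mul_apply]
  exact sum_block blk_vroot.2.2.2.2.1 blk_vroot.1 blk_vroot.2.2.1 (by omega) _
    fun c hc => by rw [hh c j hc, mul_zero]

theorem PresV.mul {g h : GL Idx₂ F} (hg : PresV g) (hh : PresV h) : PresV (g * h) := by
  intro a j ha
  rw [Units.val_mul, Matrix.mul_apply]
  refine Finset.sum_eq_zero fun c _ => ?_
  by_cases hc : blk c = 0
  · rcases c with c | c
    · simp [blk] at hc
    · obtain ⟨i, rfl⟩ := blk_vroot.2.2.1 c hc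
      rw [hg a i ha, zero_mul]
  · rw [hh c j hc, mul_zero]

theorem VM'_mul (g : GL Idx₂ F) {h : GL Idx₂ F} (hh : BlockOK h) : VM' (g * h) = VM' g * VM' h := by
  ext i j
  simp only [VM', Matrix.of_apply, Units.val_mul, Matrix.mul_apply]
  exact sum_block blk_vroot.2.2.2.2.2 blk_vroot.2.1 blk_vroot.2.2.2.1 (by omega) _
    fun c hc => by
      rw [hh c _ (by rw [show blk (Sum.inr (vroot' j) : Idx₂) = 1 from blk_vroot.2.1 j]; exact hc),
        mul_zero]

/-! ### Long root elements -/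

/-- The position of a long root element on `V`. -/
def pos2 (r : ℕ) : Fin 3 × Fin 3 :=
  if r = 0 then (2, 0) else if r = 1 then (1, 0) else if r = 5 then (2, 1)
  else if r = 6 then (1, 2) else if r = 10 then (0, 1) else (0, 2)

theorem chain_blk : ∀ r ∈ G2Even.longs, ∀ s : Fin chevG2.nroots,
    ∀ p ∈ chevG2.chainEntry r s, rblk p.1 = rblk s ∧ p.1 < chevG2.nroots := by decide +kernel

theorem long_blk : ∀ r ∈ G2Even.longs, r < chevG2.nroots ∧ rblk r = 2 ∧
    rblk (chevG2.neg r) = 2 ∧ chevG2.neg r < chevG2.nroots := by decide +kernel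

theorem chainVec_blk (t : F) {k₀ : ℕ} (a : Idx₂) (ha : blk a ≠ k₀) :
    ∀ (L : List (ℕ × ℤ)) (k : ℕ), (∀ p ∈ L, rblk p.1 = k₀) →
      chainVec chevG2 F t k L a = 0 := by
  intro L
  induction L with
  | nil => intro k _; rfl
  | cons x L ih =>
    obtain ⟨w, M⟩ := x
    intro k hL
    have hw : rblk w = k₀ := hL (w, M) (List.mem_cons_self ..)
    have hz : ev chevG2 F w a = 0 := by
      rcases a with i | v
      · exact ev_inl _ _
      · rw [ev_inr, if_neg]
        intro e
        exact ha (by show rblk v = k₀; rw [e, hw])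
    simp [chainVec, hz, ih (k + 1) fun p hp => hL p (List.mem_cons_of_mem _ hp)]

theorem blockOK_xU {r : ℕ} (hr : r ∈ G2Even.longs) (t : F) : BlockOK (SG.xU r t) := by
  obtain ⟨hr', hrb, hnb, hn'⟩ := long_blk r hr
  intro a b hab
  rw [Sys.coe_xU]
  rcases b with ⟨j, hj⟩ | ⟨s, hs⟩
  · have e := congrFun (SG.x_hv (F := F) r hr' t j hj) a
    rw [hv_eq hj, mulVec_single_col] at e
    rw [e]
    rcases a with i | v
    · exact absurd rfl hab
    · have : (v : ℕ) ≠ r := fun h => hab (by show rblk v = 2; rw [h, hrb])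
      simp [ev_inr, this]
  · rw [← mulVec_single_col (chevG2.x F r t) (Sum.inr ⟨s, hs⟩) a, ← ev_eq hs]
    by_cases h1 : s = r
    · subst h1
      rw [SG.x_ev_self s hr']
      rcases a with i | v
      · exact ev_inl _ _
      · rw [ev_inr, if_neg]
        intro h; exact hab (by show rblk v = rblk s; rw [h])
    by_cases h2 : s = chevG2.neg r
    · subst h2
      rw [SG.x_ev_neg r hr']
      rcases a with i | v
      · exact absurd (show (2 : ℕ) = rblk (chevG2.neg r) from hnb.symm) hab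
      · have h3 : (v : ℕ) ≠ r := fun h => hab (by show rblk v = rblk (chevG2.neg r); rw [h, hrb, hnb])
        have h4 : (v : ℕ) ≠ chevG2.neg r := fun h => hab (by show rblk v = rblk (chevG2.neg r); rw [h])
        simp [Finset.sum_apply, hv_inr, ev_inr, h3, h4]
    · rw [SG.x_ev r hr' s hs h1 h2, Pi.add_apply,
        chainVec_blk t a (show blk a ≠ rblk s from hab) _ 0
          (fun p hp => (chain_blk r hr ⟨s, hs⟩ p hp).1), add_zero]
      rcases a with i | v
      · exact ev_inl _ _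
      · rw [ev_inr, if_neg]
        intro h; exact hab (by show rblk v = rblk s; rw [h])

theorem chain_V : ∀ r ∈ G2Even.longs, ∀ j : Fin 3,
    ((vroot j : ℕ) ≠ r ∧ (vroot j : ℕ) ≠ chevG2.neg r ∧
      chevG2.chainEntry r (vroot j) =
        if j = (pos2 r).2 then [((vroot (pos2 r).1 : ℕ), -1)] else []) ∧
    ((vroot' j : ℕ) ≠ r ∧ (vroot' j : ℕ) ≠ chevG2.neg r ∧
      chevG2.chainEntry r (vroot' j) =
        if j = (pos2 r).1 then [((vroot' (pos2 r).2 : ℕ), 1)] else []) ∧
    (pos2 r).1 ≠ (pos2 r).2 := by decide +kernel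

theorem VM_xU {r : ℕ} (hr : r ∈ G2Even.longs) (t : F) :
    VM (SG.xU r t) = Matrix.transvection (pos2 r).1 (pos2 r).2 (-t) ∧
    VM' (SG.xU r t) = Matrix.transvection (pos2 r).2 (pos2 r).1 t := by
  obtain ⟨hr', -, -, -⟩ := long_blk r hr
  constructor <;> ext i j
  · obtain ⟨⟨h1, h2, hc⟩, -, -⟩ := chain_V r hr j
    have e := congrFun (SG.x_ev (F := F) r hr' (vroot j : ℕ) (vroot j).2 h1 h2 t) (Sum.inr (vroot i))
    rw [ev_eq (vroot j).2, mulVec_single_col] at e
    simp only [VM, Matrix.of_apply, Sys.coe_xU]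
    rw [e, hc, Matrix.transvection, Matrix.add_apply]
    by_cases hj : j = (pos2 r).2
    · rw [if_pos hj]
      simp [chainVec, ev_inr, Matrix.one_apply, Matrix.single_apply, ← Fin.ext_iff, hj,
        blk_vroot.2.2.2.2.1.eq_iff, eq_comm, Pi.single_apply]
      try (split_ifs <;> simp)
    · rw [if_neg hj]
      simp [chainVec, Matrix.one_apply, Matrix.single_apply, hj, Ne.symm hj,
        blk_vroot.2.2.2.2.1.eq_iff, eq_comm, Pi.single_apply]
  · obtain ⟨-, ⟨h1, h2, hc⟩, -⟩ := chain_V r hr j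
    have e := congrFun (SG.x_ev (F := F) r hr' (vroot' j : ℕ) (vroot' j).2 h1 h2 t) (Sum.inr (vroot' i))
    rw [ev_eq (vroot' j).2, mulVec_single_col] at e
    simp only [VM', Matrix.of_apply, Sys.coe_xU]
    rw [e, hc, Matrix.transvection, Matrix.add_apply]
    by_cases hj : j = (pos2 r).1
    · rw [if_pos hj]
      simp [chainVec, ev_inr, Matrix.one_apply, Matrix.single_apply, ← Fin.ext_iff, hj,
        blk_vroot.2.2.2.2.2.eq_iff, eq_comm, Pi.single_apply]
    · rw [if_neg hj]
      simp [chainVec, Matrix.one_apply, Matrix.single_apply, hj, Ne.symm hj,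
        blk_vroot.2.2.2.2.2.eq_iff, eq_comm, Pi.single_apply]

/-- The long root generators. -/
def longGens (F : Type u) [Field F] : Set (GL Idx₂ F) := {g | ∃ r ∈ G2Even.longs, ∃ t : F, g = SG.xU r t}

/-- The subgroup generated by the long root subgroups. -/
noncomputable def G₀ (F : Type u) [Field F] : Subgroup (GL Idx₂ F) := Subgroup.closure (longGens F)

theorem G₀_le : G₀ F ≤ chevG2.group F := by
  rw [G₀, Subgroup.closure_le]
  rintro _ ⟨r, -, t, rfl⟩
  exact SG.xU_mem_group r t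

theorem G₀_induction {P : GL Idx₂ F → Prop} (h1 : P 1)
    (hgen : ∀ r ∈ G2Even.longs, ∀ t : F, P (SG.xU r t))
    (hmul : ∀ a b, a ∈ G₀ F → b ∈ G₀ F → P a → P b → P (a * b)) {g : GL Idx₂ F} (hg : g ∈ G₀ F) : P g := by
  induction hg using Subgroup.closure_induction'' with
  | mem x hx => obtain ⟨r, hr, t, rfl⟩ := hx; exact hgen r hr t
  | inv_mem x hx => obtain ⟨r, hr, t, rfl⟩ := hx; rw [SG.xU_inv]; exact hgen r hr _
  | one => exact h1
  | mul x y hx hy h h' => exact hmul x y hx hy h h'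

theorem blockOK_G₀ {g : GL Idx₂ F} (hg : g ∈ G₀ F) : BlockOK g :=
  G₀_induction (P := BlockOK) blockOK_one (fun _ hr t => blockOK_xU hr t) (fun _ _ _ _ => BlockOK.mul) hg

theorem contragredient {g : GL Idx₂ F} (hg : g ∈ G₀ F) : (VM' g)ᵀ * VM g = 1 := by
  refine G₀_induction (P := fun g => (VM' g)ᵀ * VM g = 1) ?_ ?_ ?_ hg
  · rw [VM_one, VM'_one, transpose_one, one_mul]
  · intro r hr t
    obtain ⟨e, e'⟩ := VM_xU hr t
    rw [e, e', show (Matrix.transvection (pos2 r).2 (pos2 r).1 t)ᵀ = Matrix.transvection (pos2 r).1 (pos2 r).2 t by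
        simp [Matrix.transvection, Matrix.transpose_add, Matrix.transpose_single], transvection_mul_transvection_same (h := (chain_V r hr 0).2.2),
      add_neg_cancel, transvection_zero]
  · intro a b _ hb iha ihb
    rw [VM'_mul a (blockOK_G₀ hb), VM_mul a (blockOK_G₀ hb).presV, transpose_mul, Matrix.mul_assoc,
      ← Matrix.mul_assoc (VM' a)ᵀ, iha, Matrix.one_mul, ihb]

theorem det_VM {g : GL Idx₂ F} (hg : g ∈ G₀ F) : (VM g).det = 1 := by
  refine G₀_induction (P := fun g => (VM g).det = 1) (by rw [VM_one, det_one]) ?_ ?_ hg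
  · intro r hr t
    rw [(VM_xU hr t).1, det_transvection_of_ne _ _ (chain_V r hr 0).2.2]
  · intro a b _ hb iha ihb
    rw [VM_mul a (blockOK_G₀ hb).presV, det_mul, iha, ihb, one_mul]

theorem pos2_surj : ∀ i j : Fin 3, i ≠ j → ∃ r ∈ G2Even.longs, pos2 r = (i, j) := by decide +kernel

/-- Every matrix of determinant one is the block of some element of `G₀`. -/
theorem exists_preimage {A : Matrix (Fin 3) (Fin 3) F} (hA : A.det = 1) :
    ∃ g ∈ G₀ F, VM g = A := by
  have hinv : ∀ a : SpecialLinearGroup (Fin 3) F, (∃ g ∈ G₀ F, VM g = (a : Matrix (Fin 3) (Fin 3) F)) →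
      ∃ g ∈ G₀ F, VM g = ((a⁻¹ : SpecialLinearGroup (Fin 3) F) : Matrix (Fin 3) (Fin 3) F) := by
    rintro a ⟨g, hg, e⟩
    refine ⟨g⁻¹, inv_mem hg, ?_⟩
    have h1 : VM g⁻¹ * VM g = 1 := by
      rw [← VM_mul _ (blockOK_G₀ hg).presV, inv_mul_cancel, VM_one]
    rw [e] at h1
    have h2 : (a : Matrix (Fin 3) (Fin 3) F) * ((a⁻¹ : SpecialLinearGroup (Fin 3) F) : Matrix (Fin 3) (Fin 3) F) = 1 :=
      congrArg Subtype.val (mul_inv_cancel a)
    calc VM g⁻¹ = VM g⁻¹ * ((a : Matrix (Fin 3) (Fin 3) F) * ((a⁻¹ : SpecialLinearGroup (Fin 3) F) : Matrix (Fin 3) (Fin 3) F)) := by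
          rw [h2, Matrix.mul_one]
      _ = (VM g⁻¹ * (a : Matrix (Fin 3) (Fin 3) F)) * ((a⁻¹ : SpecialLinearGroup (Fin 3) F) : Matrix (Fin 3) (Fin 3) F) :=
          (Matrix.mul_assoc _ _ _).symm
      _ = _ := by rw [h1, Matrix.one_mul]
  let H : Subgroup (SpecialLinearGroup (Fin 3) F) :=
    { carrier := {s | ∃ g ∈ G₀ F, VM g = (s : Matrix (Fin 3) (Fin 3) F)}
      one_mem' := ⟨1, one_mem _, by rw [VM_one]; rfl⟩
      mul_mem' := by
        rintro a b ⟨g, hg, e⟩ ⟨h, hh, e'⟩
        exact ⟨g * h, mul_mem hg hh, by rw [VM_mul g (blockOK_G₀ hh).presV, e, e']; rfl⟩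
      inv_mem' := fun {a} h => hinv a h }
  have hT : H = ⊤ := SLn.eq_top_of_transvection H fun i j hij c => by
    obtain ⟨r, hr, e⟩ := pos2_surj i j hij
    refine ⟨SG.xU r (-c), Subgroup.subset_closure ⟨r, hr, _, rfl⟩, ?_⟩
    rw [(VM_xU hr _).1, e, neg_neg, SpecialLinearGroup.transvection_coe]
    simp [Matrix.transvection]
  let M₀ : SpecialLinearGroup (Fin 3) F := ⟨A, hA⟩
  have hm : M₀ ∈ H := by rw [hT]; exact Subgroup.mem_top _
  exact hm

/-! ### The adjoint block -/

/-- The image of a basis vector of `W` as a matrix. -/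
def iotaE (r : Fin chevG2.nroots) : Matrix (Fin 3) (Fin 3) F :=
  if rblk r = 2 then -Matrix.single (pos2 r).1 (pos2 r).2 1 else 0

/-- The image of a fundamental coroot as a matrix. -/
def iotaH (i : Fin chevG2.rank) : Matrix (Fin 3) (Fin 3) F :=
  Matrix.diagonal fun j => (chevG2.cartan i (vroot j) : F)

/-- The identification of `W` with matrices of trace zero. -/
noncomputable def iota : (Idx₂ → F) →ₗ[F] Matrix (Fin 3) (Fin 3) F :=
  (Pi.basisFun F Idx₂).constr F (Sum.elim iotaH iotaE)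

theorem iota_eq (w : Idx₂ → F) :
    iota w = ∑ i, w (Sum.inl i) • iotaH i + ∑ r, w (Sum.inr r) • iotaE r := by
  rw [iota, Module.Basis.constr_apply_fintype, Fintype.sum_sum_type]
  rfl

theorem iota_eq_zero {w : Idx₂ → F} (h : iota w = 0) : ∀ a, blk a = 2 → w a = 0 := by
  have hc : chevG2.cartan 0 9 = 1 ∧ chevG2.cartan 1 9 = 0 ∧ chevG2.cartan 1 4 = 1 := by decide +kernel
  rw [iota_eq] at h
  have e : ∀ i j : Fin 3, (∑ x, w (Sum.inl x) • (iotaH x : Matrix (Fin 3) (Fin 3) F) +
      ∑ r, w (Sum.inr r) • (iotaE r : Matrix (Fin 3) (Fin 3) F)) i j = 0 := fun i j => by rw [h]; rfl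
  have key : ∀ i j : Fin 3,
      (∑ x : Fin chevG2.rank, if i = j then w (Sum.inl x) * (chevG2.cartan x (vroot i) : F) else 0) +
      ∑ r : Fin chevG2.nroots, (if rblk r = 2 ∧ (pos2 r).1 = i ∧ (pos2 r).2 = j then -w (Sum.inr r) else 0) = 0 := by
    intro i j
    refine Eq.trans ?_ (e i j)
    rw [Matrix.add_apply, Matrix.sum_apply, Matrix.sum_apply]
    refine congrArg₂ (· + ·) (Finset.sum_congr rfl fun x _ => ?_) (Finset.sum_congr rfl fun x _ => ?_)
    · simp only [Matrix.smul_apply, iotaH, Matrix.diagonal_apply, smul_eq_mul, mul_ite, mul_zero]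
    · simp only [Matrix.smul_apply, iotaE, smul_eq_mul]
      by_cases h2 : rblk x = 2
      · simp only [h2, if_true, true_and, Matrix.neg_apply, Matrix.single_apply]
        split_ifs <;> simp
      · simp [h2]
  have hdiag : ∀ i : Fin 3, w (Sum.inl (⟨0, by decide⟩ : Fin chevG2.rank)) * (chevG2.cartan 0 (vroot i) : F) +
      w (Sum.inl (⟨1, by decide⟩ : Fin chevG2.rank)) * (chevG2.cartan 1 (vroot i) : F) = 0 := by
    intro i
    have hno : ∀ r : Fin chevG2.nroots, rblk r = 2 → (pos2 r).1 ≠ (pos2 r).2 := by decide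
    have := key i i
    rw [Finset.sum_eq_zero (s := (Finset.univ : Finset (Fin chevG2.nroots))) (fun r _ => by
      rw [if_neg]; rintro ⟨a, b, c⟩; exact hno r a (b.trans c.symm)), add_zero] at this
    rw [← this]
    simp only [if_true]
    exact (Fin.sum_univ_two (f := fun x : Fin 2 => w (Sum.inl x) * (chevG2.cartan x (vroot i) : F))).symm
  have h0 : w (Sum.inl (⟨0, by decide⟩ : Fin chevG2.rank)) = 0 := by
    have := hdiag 0
    simpa [vroot, hc.1, hc.2.1] using this
  have h1 : w (Sum.inl (⟨1, by decide⟩ : Fin chevG2.rank)) = 0 := by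
    have := hdiag 1
    simpa [vroot, hc.2.2, h0] using this
  rintro (i | r) ha
  · have hi : (i : ℕ) < 2 := i.2
    rcases Nat.lt_succ_iff_lt_or_eq.1 hi with h' | h'
    · obtain rfl : i = ⟨0, by decide⟩ := Fin.ext (by simp; omega)
      exact h0
    · obtain rfl : i = ⟨1, by decide⟩ := Fin.ext h'
      exact h1
  · have hu : ∀ r s : Fin chevG2.nroots, rblk r = 2 → rblk s = 2 → pos2 r = pos2 s → r = s := by decide
    have hno : ∀ r : Fin chevG2.nroots, rblk r = 2 → (pos2 r).1 ≠ (pos2 r).2 := by decide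
    have := key (pos2 r).1 (pos2 r).2
    rw [Finset.sum_eq_zero (s := (Finset.univ : Finset (Fin chevG2.rank)))
      (fun x _ => if_neg (hno r ha)), zero_add, Finset.sum_eq_single r
      (fun s _ hs => if_neg fun ⟨a, b, c⟩ => hs (hu s r a ha (Prod.ext b c))) (by simp),
      if_pos ⟨ha, rfl, rfl⟩, neg_eq_zero] at this
    exact this

theorem iota_hv {j : ℕ} (hj : j < chevG2.rank) : iota (hv chevG2 F j) = iotaH ⟨j, hj⟩ := by
  rw [hv_eq hj, iota, ← Pi.basisFun_apply, Module.Basis.constr_basis]; rfl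

theorem iota_ev {s : ℕ} (hs : s < chevG2.nroots) : iota (ev chevG2 F s) = iotaE ⟨s, hs⟩ := by
  rw [ev_eq hs, iota, ← Pi.basisFun_apply, Module.Basis.constr_basis]; rfl

theorem iotaE_long {r : ℕ} (hr : r ∈ G2Even.longs) (h : r < chevG2.nroots) :
    (iotaE ⟨r, h⟩ : Matrix (Fin 3) (Fin 3) F) = -Matrix.single (pos2 r).1 (pos2 r).2 1 :=
  if_pos (long_blk r hr).2.1

theorem long_table : ∀ r ∈ G2Even.longs, ∀ s : Fin chevG2.nroots, rblk s = 2 → (s : ℕ) ≠ r →
    (s : ℕ) ≠ chevG2.neg r →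
    (((pos2 r).2 = (pos2 s).1 ∧ (pos2 r).1 ≠ (pos2 s).2 ∧ ∃ u ∈ G2Even.longs,
        pos2 u = ((pos2 r).1, (pos2 s).2) ∧ chevG2.chainEntry r s = [(u, -1)]) ∨
      ((pos2 r).2 ≠ (pos2 s).1 ∧ (pos2 r).1 = (pos2 s).2 ∧ ∃ u ∈ G2Even.longs,
        pos2 u = ((pos2 s).1, (pos2 r).2) ∧ chevG2.chainEntry r s = [(u, 1)]) ∨
      ((pos2 r).2 ≠ (pos2 s).1 ∧ (pos2 r).1 ≠ (pos2 s).2 ∧ chevG2.chainEntry r s = [])) := by
  decide +kernel

theorem hv_table : ∀ r ∈ G2Even.longs, ∀ j : Fin chevG2.rank,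
    chevG2.cartan j (vroot (pos2 r).1) - chevG2.cartan j (vroot (pos2 r).2) = chevG2.cartan j r := by
  decide +kernel

theorem neg_table : ∀ r ∈ G2Even.longs, pos2 (chevG2.neg r) = ((pos2 r).2, (pos2 r).1) ∧
    chevG2.neg r ∈ G2Even.longs ∧
    ∀ k : Fin 3, cor chevG2 r 0 * chevG2.cartan 0 (vroot k) + cor chevG2 r 1 * chevG2.cartan 1 (vroot k) =
      (if k = (pos2 r).1 then 1 else 0) - (if k = (pos2 r).2 then 1 else 0) := by decide +kernel

theorem other_mem_longs : ∀ r : Fin chevG2.nroots, rblk r = 2 → (r : ℕ) ∈ G2Even.longs := by decide +kernel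

/-- `iota` intertwines the long root elements with conjugation. -/
theorem iota_xU {r : ℕ} (hr : r ∈ G2Even.longs) (t : F) (w : Idx₂ → F) :
    iota ((SG.xU r t : Matrix Idx₂ Idx₂ F) *ᵥ w) * Matrix.transvection (pos2 r).1 (pos2 r).2 (-t) =
      Matrix.transvection (pos2 r).1 (pos2 r).2 (-t) * iota w := by
  classical
  obtain ⟨hr', hrb, hnb, hn'⟩ := long_blk r hr
  have hij : (pos2 r).1 ≠ (pos2 r).2 := (chain_V r hr 0).2.2
  set L : (Idx₂ → F) →ₗ[F] Matrix (Fin 3) (Fin 3) F :=
    (LinearMap.mulRight F (Matrix.transvection (pos2 r).1 (pos2 r).2 (-t))).comp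
      (iota.comp (Matrix.mulVecLin (SG.xU r t : Matrix Idx₂ Idx₂ F))) with hL
  set R : (Idx₂ → F) →ₗ[F] Matrix (Fin 3) (Fin 3) F :=
    (LinearMap.mulLeft F (Matrix.transvection (pos2 r).1 (pos2 r).2 (-t))).comp iota with hR
  suffices L = R from LinearMap.congr_fun this w
  refine (Pi.basisFun F Idx₂).ext fun b => ?_
  simp only [hL, hR, LinearMap.comp_apply, Matrix.mulVecLin_apply, LinearMap.mulRight_apply,
    LinearMap.mulLeft_apply, Pi.basisFun_apply, Sys.coe_xU]
  rcases b with ⟨j, hj⟩ | ⟨s, hs⟩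
  · rw [← hv_eq hj, SG.x_hv r hr' t j hj, map_sub, map_smul, iota_hv hj, iota_ev hr', iotaE_long hr]
    have hc := hv_table r hr ⟨j, hj⟩
    ext k l
    simp only [iotaH, Matrix.transvection, Matrix.mul_add, Matrix.add_mul, Matrix.mul_one, Matrix.one_mul,
      Matrix.sub_mul, smul_neg, Matrix.neg_mul, Matrix.smul_single, Matrix.single_mul_single_of_ne _ _ _ _ hij.symm,
      Matrix.add_apply, Matrix.sub_apply, Matrix.neg_apply, Matrix.diagonal_mul, Matrix.mul_diagonal,
      Matrix.single_apply, Matrix.diagonal_apply, Matrix.one_apply, neg_neg, sub_neg_eq_add, add_zero, smul_eq_mul, mul_one]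
    by_cases hk : (pos2 r).1 = k ∧ (pos2 r).2 = l
    · obtain ⟨rfl, rfl⟩ := hk
      simp only [and_self, if_true, if_neg hij]
      rw [← hc]; push_cast; ring
    · simp only [if_neg hk, mul_zero, zero_mul, add_zero]
      try (by_cases hkl : k = l
           · subst hkl; simp
           · simp [hkl])
  · rw [← ev_eq hs]
    by_cases hb : rblk s = 2
    swap
    · have h1 : s ≠ r := fun h => hb (h ▸ hrb)
      have h2 : s ≠ chevG2.neg r := fun h => hb (h ▸ hnb)
      have z : ∀ (L : List (ℕ × ℤ)) (k : ℕ), (∀ p ∈ L, rblk p.1 = rblk s ∧ p.1 < chevG2.nroots) →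
          iota (chainVec chevG2 F t k L) = 0 := by
        intro L
        induction L with
        | nil => intro k _; exact map_zero _
        | cons x L ih =>
          obtain ⟨v, M⟩ := x
          intro k hL
          obtain ⟨e1, e2⟩ := hL (v, M) (List.mem_cons_self ..)
          rw [chainVec, map_add, map_smul, iota_ev e2, iotaE, if_neg (e1 ▸ hb), smul_zero, zero_add,
            ih _ fun p hp => hL p (List.mem_cons_of_mem _ hp)]
      rw [SG.x_ev r hr' s hs h1 h2, map_add, z _ 0 (chain_blk r hr ⟨s, hs⟩), iota_ev hs, iotaE,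
        if_neg hb, add_zero, Matrix.zero_mul, Matrix.mul_zero]
    have hsl : s ∈ G2Even.longs := other_mem_longs ⟨s, hs⟩ hb
    have hsne : (pos2 s).1 ≠ (pos2 s).2 := (chain_V s hsl 0).2.2
    by_cases h1 : s = r
    · subst h1
      rw [SG.x_ev_self s hr', iota_ev hs, iotaE_long hsl]
      simp only [Matrix.transvection, Matrix.mul_add, Matrix.add_mul, Matrix.mul_one, Matrix.one_mul,
        Matrix.neg_mul, Matrix.mul_neg, Matrix.single_mul_single_of_ne _ _ _ _ hij.symm]
      abel
    by_cases h2 : s = chevG2.neg r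
    · subst h2
      obtain ⟨e, -, hcor⟩ := neg_table r hr
      rw [SG.x_ev_neg r hr', map_sub, map_add, map_sum, map_smul, iota_ev hs, iota_ev hr', iotaE_long hr,
        iotaE_long hsl, e]
      have hsum : ∑ i ∈ Finset.range chevG2.rank, iota (((cor chevG2 r i : F) * t) • hv chevG2 F i) =
          t • (Matrix.single (pos2 r).1 (pos2 r).1 (1 : F) - Matrix.single (pos2 r).2 (pos2 r).2 1) := by
        rw [show chevG2.rank = 2 from rfl, Finset.sum_range_succ, Finset.sum_range_one, map_smul, map_smul,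
          iota_hv (show 0 < chevG2.rank by decide), iota_hv (show 1 < chevG2.rank by decide)]
        ext k l
        simp only [iotaH, Matrix.add_apply, Matrix.smul_apply, Matrix.sub_apply, Matrix.diagonal_apply,
          Matrix.single_apply, smul_eq_mul]
        by_cases hkl : k = l
        · subst hkl
          simp only [if_true, and_self]
          have := congrArg (fun z : ℤ => (z : F)) (hcor k)
          simp only [Int.cast_add, Int.cast_mul, Int.cast_sub, Int.cast_ite, Int.cast_one, Int.cast_zero] at this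
          simp only [@eq_comm _ (pos2 r).1 k, @eq_comm _ (pos2 r).2 k]
          linear_combination t * this
        · have a1 : ¬ ((pos2 r).1 = k ∧ (pos2 r).1 = l) := fun h => hkl (h.1.symm.trans h.2)
          have a2 : ¬ ((pos2 r).2 = k ∧ (pos2 r).2 = l) := fun h => hkl (h.1.symm.trans h.2)
          simp [hkl, a1, a2]
      rw [hsum]
      simp only [Matrix.transvection, Matrix.mul_add, Matrix.add_mul, Matrix.mul_one, Matrix.one_mul,
        Matrix.sub_mul, Matrix.mul_sub, Matrix.neg_mul, Matrix.mul_neg, smul_neg, smul_sub, Matrix.smul_single,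
        Matrix.single_mul_single_same, Matrix.single_mul_single_of_ne _ _ _ _ hij,
        Matrix.single_mul_single_of_ne _ _ _ _ hij.symm, smul_eq_mul, mul_one, one_mul]
      ext k l
      simp only [Matrix.add_apply, Matrix.sub_apply, Matrix.neg_apply, Matrix.single_apply, Matrix.zero_apply]
      split_ifs <;> ring
    · rw [SG.x_ev r hr' s hs h1 h2, map_add, iota_ev hs, iotaE_long hsl]
      rcases long_table r hr ⟨s, hs⟩ hb h1 h2 with ⟨a, b, u, hu, e, hc⟩ | ⟨a, b, u, hu, e, hc⟩ | ⟨a, b, hc⟩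
      all_goals simp only [] at a b
      · rw [hc, chainVec, chainVec, add_zero, map_smul, iota_ev (long_blk u hu).1, iotaE_long hu, e]
        have b' : (pos2 s).2 ≠ (pos2 r).1 := Ne.symm b
        simp only [Matrix.transvection, Matrix.mul_add, Matrix.add_mul, Matrix.mul_one, Matrix.one_mul,
          Matrix.neg_mul, Matrix.mul_neg, smul_neg, Matrix.smul_single, a, Matrix.single_mul_single_same,
          Matrix.single_mul_single_of_ne _ _ _ _ b', Matrix.single_mul_single_of_ne _ _ _ _ hsne.symm,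
          smul_eq_mul, mul_one, pow_one, zero_add, Int.cast_neg, Int.cast_one]
        ext k l
        simp only [Matrix.add_apply, Matrix.neg_apply, Matrix.single_apply, Matrix.zero_apply]
        split_ifs <;> ring
      · rw [hc, chainVec, chainVec, add_zero, map_smul, iota_ev (long_blk u hu).1, iotaE_long hu, e]
        simp only [Matrix.transvection, Matrix.mul_add, Matrix.add_mul, Matrix.mul_one, Matrix.one_mul,
          Matrix.neg_mul, Matrix.mul_neg, smul_neg, Matrix.smul_single, ← b, Matrix.single_mul_single_same,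
          Matrix.single_mul_single_of_ne _ _ _ _ a, Matrix.single_mul_single_of_ne _ _ _ _ hij.symm,
          smul_eq_mul, mul_one, pow_one, zero_add, Int.cast_one]
        ext k l
        simp only [Matrix.add_apply, Matrix.neg_apply, Matrix.single_apply, Matrix.zero_apply]
        split_ifs <;> ring
      · rw [hc, chainVec]
        simp only [map_zero, add_zero, Matrix.transvection, Matrix.mul_add, Matrix.add_mul, Matrix.mul_one,
          Matrix.one_mul, Matrix.neg_mul, Matrix.mul_neg, Matrix.single_mul_single_of_ne _ _ _ _ a,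
          Matrix.single_mul_single_of_ne _ _ _ _ (Ne.symm b)]
        abel

/-- `iota` intertwines `g` with conjugation by its block. -/
def Intw (g : GL Idx₂ F) : Prop :=
  ∀ w, iota ((g : Matrix Idx₂ Idx₂ F) *ᵥ w) * VM g = VM g * iota w

theorem iota_G₀ {g : GL Idx₂ F} (hg : g ∈ G₀ F) : Intw g := by
  refine G₀_induction (P := Intw) ?_ ?_ ?_ hg
  · intro w; rw [VM_one, Units.val_one, one_mulVec, mul_one, one_mul]
  · intro r hr t w; rw [(VM_xU hr t).1]; exact iota_xU hr t w
  · intro a b _ hb iha ihb w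
    rw [VM_mul a (blockOK_G₀ hb).presV, Units.val_mul, ← mulVec_mulVec, ← Matrix.mul_assoc, iha,
      Matrix.mul_assoc, ihb, Matrix.mul_assoc]

end CfsgLib.Chev.G2Singer
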