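import Mathlib

/-!
# A Singer element of order `q² + q + 1` in dimension three

Its centraliser in the matrices of determinant one is cyclic, and conjugation by it has no eigenvalue among its own.
-/

set_option autoImplicit false

namespace CfsgLib.Chev.G2Singer

open Polynomial Matrix

theorem exp_ne {q i j : ℕ} (hq : 3 ≤ q) (hi : i < 3) (hj : j < 3) (k : ℤ) :
    (q : ℤ) ^ i + (q : ℤ) ^ j - 1 ≠ k * ((q : ℤ) ^ 2 + q + 1) := by
  intro h
  have hq' : (3 : ℤ) ≤ q := by exact_mod_cast hq
  have hk : k = 1 ∨ k ≤ 0 ∨ 2 ≤ k := by omega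
  interval_cases i <;> interval_cases j <;> rcases hk with hk | hk | hk <;> nlinarith

theorem singer {F : Type*} [Field F] [Finite F] (q : ℕ) (hF : Nat.card F = q) (hq : 3 ≤ q) :
    ∃ A Ai : Matrix (Fin 3) (Fin 3) F, ∃ P : F[X],
      A * Ai = 1 ∧ A.det = 1 ∧ A ^ (q ^ 2 + q + 1) = 1 ∧
      (∀ k : ℕ, A ^ k = 1 → q ^ 2 + q + 1 ∣ k) ∧
      (∀ B : Matrix (Fin 3) (Fin 3) F, B * A = A * B → B.det = 1 → ∃ k : ℕ, B = A ^ k) ∧
      aeval A P = 0 ∧ IsUnit (aeval Ai P) ∧
      (∀ X : Matrix (Fin 3) (Fin 3) F,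
        (∑ k ∈ Finset.range (P.natDegree + 1), P.coeff k • (A ^ k * X * Ai ^ k)) = 0 → X = 0) := by
  classical
  obtain ⟨p, hp⟩ := CharP.exists F
  have : Fact p.Prime := ⟨CharP.char_is_prime F p⟩
  let K := FiniteField.Extension F p 3
  have : Fintype K := Fintype.ofFinite K
  have hK : Nat.card K = q ^ 3 := by rw [FiniteField.natCard_extension, hF]
  have hfr : Module.finrank F K = 3 := FiniteField.finrank_extension F p 3
  let b := (Module.finBasis F K).reindex (finCongr hfr)
  set N := q ^ 2 + q + 1 with hN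
  have hcube : q ^ 3 - 1 = (q - 1) * N := by
    rw [hN]
    obtain ⟨r, rfl⟩ : ∃ r, q = r + 1 := ⟨q - 1, by omega⟩
    rw [Nat.add_sub_cancel]
    have : (r + 1) ^ 3 = r * ((r + 1) ^ 2 + (r + 1) + 1) + 1 := by ring
    omega
  obtain ⟨w, hw⟩ := IsCyclic.exists_generator (α := Kˣ)
  have how : orderOf w = q ^ 3 - 1 := by
    rw [orderOf_eq_card_of_forall_mem_zpowers hw, Nat.card_units, hK]
  set v : K := ((w ^ (q - 1) : Kˣ) : K) with hv
  have hov : orderOf v = N := by
    rw [hv, orderOf_units, orderOf_pow' _ (by omega), how, hcube, Nat.gcd_mul_right_left,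
      Nat.mul_div_cancel_left _ (by omega)]
  have hv0 : v ≠ 0 := Units.ne_zero _
  have hnorm : ∀ x : K, algebraMap F K (Algebra.norm F x) = x ^ N := fun x => by
    rw [FiniteField.algebraMap_norm_eq_pow, hK, hF, hcube, Nat.mul_div_cancel_left _ (by omega)]
  have hvN : v ^ N = 1 := by rw [← hov]; exact pow_orderOf_eq_one v
  have hroot : ∀ x : K, aeval x (minpoly F v) = 0 → ∃ j < 3, x = v ^ q ^ j := by
    intro x hx
    obtain ⟨σ, hσ⟩ := minpoly.exists_algEquiv_of_root' (Algebra.IsAlgebraic.isAlgebraic v) hx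
    obtain ⟨j, hj, e⟩ := FiniteField.Extension.exists_frob_pow_eq F p 3 σ
    refine ⟨j, hj, ?_⟩
    rw [← hσ, ← e, FiniteField.Extension.frob_iterate_apply, hF]
  have hzpow : ∀ k : ℤ, v ^ k = 1 → ∃ l : ℤ, k = l * (N : ℤ) := by
    intro k hk
    have h1 : (w ^ (q - 1)) ^ k = 1 := Units.ext (by rw [Units.val_zpow_eq_zpow_val, ← hv, hk]; rfl)
    have h2 := orderOf_dvd_iff_zpow_eq_one.2 h1
    rw [← orderOf_units, ← hv, hov] at h2
    obtain ⟨l, hl⟩ := h2
    exact ⟨l, by rw [hl, mul_comm]⟩
  have hNcast : (N : ℤ) = (q : ℤ) ^ 2 + q + 1 := by rw [hN]; push_cast; ring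
  let L : K →ₐ[F] Matrix (Fin 3) (Fin 3) F := Algebra.leftMulMatrix b
  have hLinj : Function.Injective L := Algebra.leftMulMatrix_injective b
  refine ⟨L v, L v⁻¹, minpoly F v, ?_, ?_, ?_, ?_, ?_, ?_, ?_, ?_⟩
  · rw [← map_mul, mul_inv_cancel₀ hv0, map_one]
  · have := hnorm v
    rw [hvN, ← map_one (algebraMap F K)] at this
    rw [← Algebra.norm_eq_matrix_det b]
    exact (algebraMap F K).injective this
  · rw [← map_pow, hvN, map_one]
  · intro k hk
    rw [← map_pow, ← map_one L] at hk
    rw [← hov]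
    exact orderOf_dvd_of_pow_eq_one (hLinj hk)
  · intro B hB hdet
    let f : K →ₗ[F] K := Matrix.toLin b b B
    have hf : ∀ y : K, f (v * y) = v * f y := by
      intro y
      have h1 : Matrix.toLin b b (B * L v) y = Matrix.toLin b b (L v * B) y := by rw [hB]
      rw [Matrix.toLin_mul b b b, Matrix.toLin_mul b b b] at h1
      simpa [L, f, Matrix.toLin_toMatrix, ← Algebra.toMatrix_lmul_eq] using h1
    let S : Subalgebra F K :=
      { carrier := {x | ∀ y, f (x * y) = x * f y}
        mul_mem' := fun {a c} ha hc y => by rw [mul_assoc, ha, hc, mul_assoc]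
        one_mem' := fun y => by simp
        add_mem' := fun {a c} ha hc y => by rw [add_mul, map_add, ha, hc, add_mul]
        zero_mem' := fun y => by simp
        algebraMap_mem' := fun c y => by
          rw [← Algebra.smul_def, map_smul, Algebra.smul_def] }
    have hS : S = ⊤ := by
      rcases (Subalgebra.isSimpleOrder_of_finrank_prime F K (by rw [hfr]; exact Nat.prime_three)).eq_bot_or_eq_top S
        with h | h
      · exfalso
        have hv' : v ∈ S := hf
        rw [h, Algebra.mem_bot] at hv'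
        obtain ⟨c, hc⟩ := hv'
        haveI := Fintype.ofFinite F
        have hc0 : c ≠ 0 := fun e => hv0 (by rw [← hc, e, map_zero])
        have : v ^ (q - 1) = 1 := by
          rw [← hc, ← map_pow, ← hF, Nat.card_eq_fintype_card, FiniteField.pow_card_sub_one_eq_one c hc0, map_one]
        have := Nat.le_of_dvd (by omega) (orderOf_dvd_of_pow_eq_one this)
        rw [hov, hN] at this
        omega
      · exact h
    set μ := f 1
    have hfx : ∀ x, f x = μ * x := fun x => by
      have hx : x ∈ S := hS ▸ Algebra.mem_top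
      have := hx 1
      rw [mul_one] at this
      rw [this, mul_comm]
    have hBL : B = L μ := by
      have : f = LinearMap.mulLeft F μ := LinearMap.ext hfx
      show B = Algebra.leftMulMatrix b μ
      rw [← Algebra.toMatrix_lmul_eq, ← this]
      exact (LinearMap.toMatrix_toLin b b B).symm
    have hμ : μ ^ N = 1 := by
      rw [← hnorm, Algebra.norm_eq_matrix_det b, show Algebra.leftMulMatrix b μ = B from hBL.symm, hdet, map_one]
    haveI : NeZero N := ⟨by rw [hN]; omega⟩
    obtain ⟨k, -, hk⟩ := (hov ▸ IsPrimitiveRoot.orderOf v : IsPrimitiveRoot v N).eq_pow_of_pow_eq_one hμ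
    exact ⟨k, by rw [hBL, ← hk, map_pow]⟩
  · rw [aeval_algHom_apply, minpoly.aeval, map_zero]
  · rw [aeval_algHom_apply]
    refine IsUnit.map L (IsUnit.mk0 _ fun h => ?_)
    obtain ⟨j, hj, e⟩ := hroot _ h
    have h1 : v ^ (((q ^ j + 1 : ℕ)) : ℤ) = 1 := by
      rw [zpow_natCast, pow_succ, ← e, inv_mul_cancel₀ hv0]
    obtain ⟨l, hl⟩ := hzpow _ h1
    rw [hNcast] at hl
    push_cast at hl
    have hq' : (3 : ℤ) ≤ q := by exact_mod_cast hq
    have hl' : l ≤ 0 ∨ 1 ≤ l := by omega
    interval_cases j <;> rcases hl' with hl' | hl' <;> nlinarith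
  · intro X hX
    let f : K →ₗ[F] K := Matrix.toLin b b X
    let φ : Fin 3 → (K →ₐ[F] K) := fun i => ((FiniteField.Extension.frob F p 3 ^ (i : ℕ) : Gal(K/F)) : K →ₐ[F] K)
    have hφ : ∀ i x, φ i x = x ^ q ^ (i : ℕ) := fun i x => by
      show (FiniteField.Extension.frob F p 3 ^ (i : ℕ)) x = _
      rw [FiniteField.Extension.frob_iterate_apply, hF]
    have hexp : ∀ i j : Fin 3, v ^ q ^ (i : ℕ) = v ^ q ^ (j : ℕ) → i = j := by
      intro i j h
      have h1 : v ^ (((q ^ (i : ℕ) : ℕ) : ℤ) - (q ^ (j : ℕ) : ℕ)) = 1 := by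
        rw [zpow_sub₀ hv0, zpow_natCast, zpow_natCast, h, div_self (pow_ne_zero _ hv0)]
      obtain ⟨l, hl⟩ := hzpow _ h1
      rw [hNcast] at hl
      push_cast at hl
      have hq' : (3 : ℤ) ≤ q := by exact_mod_cast hq
      have hl' : l = 0 ∨ l ≤ -1 ∨ 1 ≤ l := by omega
      fin_cases i <;> fin_cases j <;> simp at hl ⊢ <;> rcases hl' with hl' | hl' | hl' <;> nlinarith
    have hφinj : Function.Injective φ := fun i j h => hexp i j (by rw [← hφ, ← hφ, h])
    let T : (Fin 3 → K) →ₗ[F] (K →ₗ[F] K) :=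
      { toFun := fun a => ∑ i, a i • (φ i).toLinearMap
        map_add' := fun a c => by simp [add_smul, Finset.sum_add_distrib]
        map_smul' := fun c a => by simp [Finset.smul_sum, smul_assoc] }
    have hT : Function.Injective T := by
      rw [← LinearMap.ker_eq_bot, LinearMap.ker_eq_bot']
      intro a ha
      exact funext (Fintype.linearIndependent_iff.1 ((linearIndependent_toLinearMap F K K).comp φ hφinj) a ha)
    have hTs : Function.Surjective T := (LinearMap.injective_iff_surjective_of_finrank_eq_finrank (by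
      rw [Module.finrank_pi_fintype, Module.finrank_linearMap, hfr]; simp)).1 hT
    obtain ⟨a, ha⟩ := hTs f
    have key : ∀ y : K, (∑ i, a i * (aeval (v * φ i v⁻¹) (minpoly F v)) * φ i y) = 0 := by
      intro y
      have h0 : Matrix.toLin b b (∑ k ∈ Finset.range ((minpoly F v).natDegree + 1),
          (minpoly F v).coeff k • (L v ^ k * X * L v⁻¹ ^ k)) y = 0 := by
        rw [hX, map_zero]; rfl
      rw [map_sum, LinearMap.sum_apply] at h0
      rw [← h0]
      simp only [map_smul, LinearMap.smul_apply, ← map_pow]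
      rw [Finset.sum_congr rfl (fun i (_ : i ∈ Finset.univ) =>
        show a i * aeval (v * φ i v⁻¹) (minpoly F v) * φ i y =
          ∑ k ∈ Finset.range ((minpoly F v).natDegree + 1),
            a i * ((minpoly F v).coeff k • (v * φ i v⁻¹) ^ k) * φ i y by
          rw [aeval_eq_sum_range (R := F), Finset.mul_sum (R := K), Finset.sum_mul (R := K)])]
      rw [Finset.sum_comm]
      refine Finset.sum_congr rfl fun k _ => ?_
      rw [Matrix.toLin_mul b b b, Matrix.toLin_mul b b b, LinearMap.comp_apply, LinearMap.comp_apply]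
      have hL : ∀ x z : K, Matrix.toLin b b (L x) z = x * z := fun x z => by
        show Matrix.toLin b b (Algebra.leftMulMatrix b x) z = _
        rw [← Algebra.toMatrix_lmul_eq, Matrix.toLin_toMatrix]; rfl
      rw [hL, hL, show Matrix.toLin b b X = f from rfl, ← ha]
      have hTap : ∀ z : K, T a z = ∑ i, a i * φ i z := fun z => by simp [T]
      rw [hTap, Finset.mul_sum (R := K), Finset.smul_sum]
      refine Finset.sum_congr rfl fun i _ => ?_
      rw [map_mul, map_pow, Algebra.smul_def, Algebra.smul_def, mul_pow]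
      ring
    have hz : ∀ i, a i * aeval (v * φ i v⁻¹) (minpoly F v) = 0 := by
      have := Fintype.linearIndependent_iff.1 ((linearIndependent_toLinearMap F K K).comp φ hφinj)
        (fun i => a i * aeval (v * φ i v⁻¹) (minpoly F v)) (LinearMap.ext fun y => by
          simpa [LinearMap.sum_apply, LinearMap.smul_apply, smul_eq_mul] using key y)
      exact this
    have ha0 : a = 0 := by
      funext i
      refine (mul_eq_zero.1 (hz i)).resolve_right fun h => ?_
      obtain ⟨j, hj, e⟩ := hroot _ h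
      rw [hφ, inv_pow] at e
      have h1 : v ^ (((q : ℤ) ^ (i : ℕ)) + (q : ℤ) ^ j - 1) = 1 := by
        rw [show ((q : ℤ) ^ (i : ℕ)) + (q : ℤ) ^ j - 1 = ((q ^ (i : ℕ) + q ^ j : ℕ) : ℤ) - 1 by push_cast; ring,
          zpow_sub₀ hv0, zpow_natCast, zpow_one, pow_add, ← e]
        rw [mul_left_comm, mul_inv_cancel₀ (pow_ne_zero _ hv0), mul_one, div_self hv0]
      obtain ⟨l, hl⟩ := hzpow _ h1
      rw [hNcast] at hl
      exact exp_ne hq i.2 hj l hl
    have hf0 : f = 0 := by rw [← ha, ha0, map_zero]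
    exact (Matrix.toLin b b).injective (by rw [map_zero]; exact hf0)

end CfsgLib.Chev.G2Singer
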