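import Cfsg.Agent.Chev.G2Singer.Blocks
import Cfsg.Agent.Chev.G2Singer.Field

/-!
# A self-centralising cyclic subgroup of order `q² + q + 1` of `G₂(q)`
-/

set_option autoImplicit false
set_option maxRecDepth 100000
set_option linter.unusedSectionVars false

namespace CfsgLib.Chev.G2Singer

open Cfsg.Lie CfsgLib.Chev Matrix Polynomial

universe u

variable {F : Type u} [Field F]

local notation "Idx₂" => ChevalleyDatum.Idx chevG2

theorem diag_of_VM {g : GL Idx₂ F} (hg : g ∈ chevG2.group F) (hp : PresV g) {d : Fin 3 → F}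
    (hd : VM g = Matrix.diagonal d) :
    ∃ z : ℕ → Fˣ, g = SG.dg z ∧ ∀ j, (SG.chi z (vroot j) : F) = d j := by
  have hcol : ∀ j, (g : Matrix Idx₂ Idx₂ F) *ᵥ ev chevG2 F (vroot j : ℕ) = d j • ev chevG2 F (vroot j : ℕ) := by
    intro j
    funext a
    rw [Pi.smul_apply, ev_eq (vroot j).2, mulVec_single_col, smul_eq_mul]
    show (g : Matrix Idx₂ Idx₂ F) a (Sum.inr (vroot j)) = d j * (Pi.single (Sum.inr (vroot j)) (1 : F) : Idx₂ → F) a
    by_cases ha : blk a = 0
    · rcases a with i | r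
      · simp [blk] at ha
      · obtain ⟨i, rfl⟩ := blk_vroot.2.2.1 r ha
        have := congrFun (congrFun hd i) j
        simp only [VM, Matrix.of_apply] at this
        rw [this, Matrix.diagonal_apply, Pi.single_apply]
        by_cases h : i = j
        · subst h; simp
        · simp [h, blk_vroot.2.2.2.2.1.eq_iff]
    · rw [hp a j ha, Pi.single_apply, if_neg fun e => ha (by rw [e]; exact blk_vroot.1 j), mul_zero]
  have hfix : FixLines g := by
    intro r hr
    fin_cases hr
    · exact ⟨d 0, hcol 0⟩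
    · exact ⟨d 1, hcol 1⟩
    · exact ⟨d 2, hcol 2⟩
  obtain ⟨z, rfl⟩ := SG.exists_dg (torus_of_fixLines hg hfix)
  refine ⟨z, rfl, fun j => ?_⟩
  have h1 := congrFun (hcol j) (Sum.inr (vroot j))
  rw [SG.dg_ev z (vroot j : ℕ), Pi.smul_apply, Pi.smul_apply, ev_inr, if_pos rfl, smul_eq_mul,
    smul_eq_mul, mul_one, mul_one] at h1
  exact h1

theorem eq_one_of_VM {g : GL Idx₂ F} (hg : g ∈ chevG2.group F) (hp : PresV g) (hd : VM g = 1) : g = 1 := by
  obtain ⟨z, rfl, hz⟩ := diag_of_VM hg hp (d := fun _ => 1) (by rw [hd, Matrix.diagonal_one])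
  exact dg_eq_one (Units.ext (hz 1)) (Units.ext (hz 2))

theorem VM_pow {g : GL Idx₂ F} (hg : g ∈ G₀ F) (k : ℕ) : VM (g ^ k) = VM g ^ k := by
  induction k with
  | zero => rw [pow_zero, pow_zero, VM_one]
  | succ k ih => rw [pow_succ, pow_succ, VM_mul _ (blockOK_G₀ hg).presV, ih]

theorem VM'_pow {g : GL Idx₂ F} (hg : g ∈ G₀ F) (k : ℕ) : VM' (g ^ k) = VM' g ^ k := by
  induction k with
  | zero => rw [pow_zero, pow_zero, VM'_one]
  | succ k ih => rw [pow_succ, pow_succ, VM'_mul _ (blockOK_G₀ hg), ih]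

/-- `P(h)` of an element of `G₀`. -/
noncomputable def pol (h : GL Idx₂ F) (P : F[X]) : Matrix Idx₂ Idx₂ F :=
  ∑ k ∈ Finset.range (P.natDegree + 1), P.coeff k • ((h ^ k : GL Idx₂ F) : Matrix Idx₂ Idx₂ F)

theorem pol_blk {h : GL Idx₂ F} (hh : h ∈ G₀ F) (P : F[X]) {a b : Idx₂} (hab : blk a ≠ blk b) :
    pol h P a b = 0 := by
  rw [pol, Matrix.sum_apply]
  exact Finset.sum_eq_zero fun k _ => by
    rw [Matrix.smul_apply, blockOK_G₀ (pow_mem hh k) a b hab, smul_zero]

theorem pol_comm {h g : GL Idx₂ F} (hc : g * h = h * g) (P : F[X]) :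
    pol h P * (g : Matrix Idx₂ Idx₂ F) = (g : Matrix Idx₂ Idx₂ F) * pol h P := by
  rw [pol, Finset.sum_mul, Finset.mul_sum]
  refine Finset.sum_congr rfl fun k _ => ?_
  rw [Matrix.smul_mul, Matrix.mul_smul, ← Units.val_mul, ← Units.val_mul, (Commute.pow_right hc k).eq]

theorem presV_of_commute {h g : GL Idx₂ F} (hh : h ∈ G₀ F) (hc : g * h = h * g)
    {A Ai : Matrix (Fin 3) (Fin 3) F} (hA : VM h = A) (hAi : A * Ai = 1) {P : F[X]}
    (h0 : aeval A P = 0) (hu : IsUnit (aeval Ai P))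
    (hW : ∀ X : Matrix (Fin 3) (Fin 3) F,
      (∑ k ∈ Finset.range (P.natDegree + 1), P.coeff k • (A ^ k * X * Ai ^ k)) = 0 → X = 0) :
    PresV g := by
  intro a j ha
  set y : Idx₂ → F := (g : Matrix Idx₂ Idx₂ F) *ᵥ Pi.single (Sum.inr (vroot j)) 1 with hy
  have hv : pol h P *ᵥ Pi.single (Sum.inr (vroot j) : Idx₂) 1 = 0 := by
    funext c
    rw [mulVec_single_col, Pi.zero_apply]
    by_cases hc0 : blk c = 0
    · rcases c with i | r
      · simp [blk] at hc0
      · obtain ⟨i, rfl⟩ := blk_vroot.2.2.1 r hc0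
        have := congrFun (congrFun h0 i) j
        rw [aeval_eq_sum_range, Matrix.sum_apply, Matrix.zero_apply] at this
        rw [← this, pol, Matrix.sum_apply]
        refine Finset.sum_congr rfl fun k _ => ?_
        rw [Matrix.smul_apply, Matrix.smul_apply, ← hA, ← VM_pow hh]; rfl
    · exact pol_blk hh P (by rw [show blk (Sum.inr (vroot j) : Idx₂) = 0 from blk_vroot.1 j]; exact hc0)
  have hzero : pol h P *ᵥ y = 0 := by
    rw [hy, mulVec_mulVec, pol_comm hc, ← mulVec_mulVec, hv, mulVec_zero]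
  suffices y a = 0 by rwa [hy, mulVec_single_col] at this
  rcases (show blk a = 1 ∨ blk a = 2 from by
    rcases a with i | r
    · exact Or.inr rfl
    · have h' : rblk r ≠ 0 := ha
      show rblk r = 1 ∨ rblk r = 2
      unfold rblk at h' ⊢
      split_ifs at h' ⊢ <;> first | exact absurd rfl h' | simp) with h1 | h2
  · have hinv : (VM' h)ᵀ = Ai := by
      have h' := contragredient hh
      rw [hA] at h'
      exact (left_inv_eq_right_inv h' hAi)
    set y' : Fin 3 → F := fun i => y (Sum.inr (vroot' i)) with hy'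
    have e : (aeval Ai P)ᵀ *ᵥ y' = 0 := by
      funext i
      have := congrFun hzero (Sum.inr (vroot' i))
      rw [Pi.zero_apply] at this
      rw [Pi.zero_apply, ← this]
      simp only [mulVec, dotProduct]
      rw [sum_block blk_vroot.2.2.2.2.2 blk_vroot.2.1 blk_vroot.2.2.2.1 (by omega)
        (fun c => pol h P (Sum.inr (vroot' i)) c * y c) (fun c hc' => by
          rw [pol_blk hh P (by rw [show blk (Sum.inr (vroot' i) : Idx₂) = 1 from blk_vroot.2.1 i]; exact Ne.symm hc'),
            zero_mul])]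
      refine Finset.sum_congr rfl fun l _ => ?_
      congr 1
      rw [aeval_eq_sum_range, Matrix.transpose_sum, Matrix.sum_apply, pol, Matrix.sum_apply]
      refine Finset.sum_congr rfl fun k _ => ?_
      rw [Matrix.transpose_smul, Matrix.smul_apply, Matrix.smul_apply, ← hinv, Matrix.transpose_pow,
        Matrix.transpose_transpose, ← VM'_pow hh]
      rfl
    have hy0 : y' = 0 := by
      refine Matrix.mulVec_injective_iff_isUnit.2 ?_ (e.trans (mulVec_zero _).symm)
      rw [Matrix.isUnit_iff_isUnit_det, Matrix.det_transpose, ← Matrix.isUnit_iff_isUnit_det]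
      exact hu
    rcases a with i | r
    · simp [blk] at h1
    · obtain ⟨i, rfl⟩ := blk_vroot.2.2.2.1 r h1
      exact congrFun hy0 i
  · refine iota_eq_zero (hW _ ?_) a h2
    have := congrArg iota hzero
    rw [map_zero, pol, Matrix.sum_mulVec, map_sum] at this
    rw [← this]
    refine Finset.sum_congr rfl fun k _ => ?_
    rw [Matrix.smul_mulVec, map_smul]
    congr 1
    have e := iota_G₀ (pow_mem hh k) y
    rw [VM_pow hh, hA] at e
    rw [← e, Matrix.mul_assoc, ← (show Commute A Ai from hAi.trans (mul_eq_one_comm.1 hAi).symm).mul_pow,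
      hAi, one_pow, Matrix.mul_one]

theorem main [Finite F] {q : ℕ} (hF : Nat.card F = q) (hq : 3 ≤ q) :
    ∃ H : Subgroup ↥(chevG2.group F), IsCyclic ↥H ∧ Nat.card ↥H = q ^ 2 + q + 1 ∧
      Subgroup.centralizer (H : Set ↥(chevG2.group F)) = H := by
  obtain ⟨A, Ai, P, hAi, hdetA, hAN, hAord, hcomm, h0, hu, hW⟩ := singer q hF hq
  obtain ⟨h, hh, hA⟩ := exists_preimage hdetA
  set hG : ↥(chevG2.group F) := ⟨h, G₀_le hh⟩
  have hpow : h ^ (q ^ 2 + q + 1) = 1 :=
    eq_one_of_VM (pow_mem (G₀_le hh) _) (blockOK_G₀ (pow_mem hh _)).presV (by rw [VM_pow hh, hA, hAN])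
  have hord : orderOf hG = q ^ 2 + q + 1 := by
    refine Nat.dvd_antisymm (orderOf_dvd_of_pow_eq_one (Subtype.ext hpow)) (hAord _ ?_)
    have := congrArg Subtype.val (pow_orderOf_eq_one hG)
    rw [← hA, ← VM_pow hh, show h ^ orderOf hG = 1 from this, VM_one]
  refine ⟨Subgroup.zpowers hG, inferInstance, by rw [Nat.card_zpowers, hord], ?_⟩
  refine le_antisymm (fun g hg => ?_) (Subgroup.le_centralizer _)
  have hc' : (g : GL Idx₂ F) * h = h * g :=
    congrArg Subtype.val ((Subgroup.mem_centralizer_iff.1 hg) hG (Subgroup.mem_zpowers _)).symm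
  have hci : (g : GL Idx₂ F)⁻¹ * h = h * (g : GL Idx₂ F)⁻¹ :=
    ((show Commute (g : GL Idx₂ F) h from hc').inv_left).eq
  have hp := presV_of_commute hh hc' hA hAi h0 hu hW
  have hpi := presV_of_commute hh hci hA hAi h0 hu hW
  set B := VM (g : GL Idx₂ F) with hB
  have hBA : B * A = A * B := by
    rw [← hA, hB, ← VM_mul _ (blockOK_G₀ hh).presV, ← VM_mul _ hp, hc']
  have hBu : VM ((g : GL Idx₂ F)⁻¹) * B = 1 := by
    rw [hB, ← VM_mul _ hp, inv_mul_cancel, VM_one]
  have hd : B.det ≠ 0 := fun e => by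
    have := congrArg Matrix.det hBu
    rw [det_mul, e, mul_zero, det_one] at this
    exact zero_ne_one this
  set D : Matrix (Fin 3) (Fin 3) F := Matrix.diagonal ![(B.det)⁻¹, 1, 1] with hD
  obtain ⟨g₀, hg₀, e₀⟩ := exists_preimage (A := D * B) (by
    rw [det_mul, hD, det_diagonal, Fin.prod_univ_three]; simp [hd])
  have hdet : B.det = 1 := by
    set g₁ : GL Idx₂ F := (g : GL Idx₂ F) * g₀⁻¹
    have hp1 : PresV g₁ := hp.mul (blockOK_G₀ (inv_mem hg₀)).presV
    have e1 : VM g₁ * (D * B) = B := by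
      rw [← e₀, ← VM_mul _ (blockOK_G₀ hg₀).presV, inv_mul_cancel_right]
    have e2 : VM g₁ = Matrix.diagonal ![B.det, 1, 1] := by
      have e3 : Matrix.diagonal ![B.det, 1, 1] * (D * B) = B := by
        rw [← Matrix.mul_assoc, hD, Matrix.diagonal_mul_diagonal]
        rw [show (fun i => (![B.det, 1, 1] : Fin 3 → F) i * (![(B.det)⁻¹, 1, 1] : Fin 3 → F) i) = fun _ => 1 by
          funext i; fin_cases i <;> simp [hd]]
        rw [Matrix.diagonal_one, Matrix.one_mul]
      have hu' : IsUnit (D * B) := by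
        rw [Matrix.isUnit_iff_isUnit_det, det_mul, hD, det_diagonal, Fin.prod_univ_three]
        simp [hd]
      exact hu'.mul_left_injective (e1.trans e3.symm)
    obtain ⟨z, -, hz⟩ := diag_of_VM (mul_mem g.2 (inv_mem (G₀_le hg₀))) hp1 e2
    have h9 : (SG.chi z 9 : F) = B.det := hz 0
    have h4 : (SG.chi z 4 : F) = 1 := hz 1
    have h3 : (SG.chi z 3 : F) = 1 := hz 2
    have := congrArg Units.val (chi_prod z)
    rw [Units.val_mul, Units.val_mul, h9, h4, h3, mul_one, mul_one, Units.val_one] at this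
    exact this
  obtain ⟨k, hk⟩ := hcomm B hBA hdet
  have e : (g : GL Idx₂ F) = h ^ k := by
    refine mul_inv_eq_one.1 (eq_one_of_VM (mul_mem g.2 (inv_mem (pow_mem (G₀_le hh) k)))
      (hp.mul (blockOK_G₀ (inv_mem (pow_mem hh k))).presV) ?_)
    rw [VM_mul _ (blockOK_G₀ (inv_mem (pow_mem hh k))).presV, ← hB, hk, ← hA, ← VM_pow hh,
      ← VM_mul _ (blockOK_G₀ (inv_mem (pow_mem hh k))).presV, mul_inv_cancel, VM_one]
  exact Subgroup.mem_zpowers_iff.2 ⟨k, Subtype.ext (by rw [zpow_natCast, SubmonoidClass.coe_pow]; exact e.symm)⟩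

end CfsgLib.Chev.G2Singer
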