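import Cfsg.Agent.Chev.G2Even.Involution
import Cfsg.Agent.Chev.SoundEngine

/-!
# Elements of `G₂` fixing the lines of three short root vectors

An element of `G₂(F)` fixing the lines of `e₉`, `e₄`, `e₃` lies in the torus.
-/

set_option autoImplicit false
set_option maxRecDepth 100000
set_option linter.unusedSectionVars false

namespace CfsgLib.Chev.G2Singer

open Cfsg.Lie CfsgLib.Chev Matrix

universe u

variable {F : Type u} [Field F]

/-- The description of `G₂`. -/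
noncomputable abbrev SG : Sys.{u} chevG2 := sysG2

/-- `g` fixes the lines of `e₉`, `e₄`, `e₃`. -/
def FixLines (g : GL chevG2.Idx F) : Prop :=
  ∀ r ∈ ([9, 4, 3] : List ℕ), ∃ c : F,
    (g : Matrix chevG2.Idx chevG2.Idx F) *ᵥ ev chevG2 F r = c • ev chevG2 F r

theorem words_ge : ∀ L ∈ G2Even.words,
    (∀ r ∈ ([9, 4, 3] : List ℕ), ∀ h : r < chevG2.nroots,
      r ≤ ((SG.{u}.wprod L ⟨r, h⟩ : Fin chevG2.nroots) : ℕ)) → L = [] := by
  decide +kernel

/-- Every such element is in the Borel subgroup. -/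
theorem mem_borel {g : GL chevG2.Idx F} (hg : g ∈ chevG2.group F) (hfix : FixLines g) :
    g ∈ chevG2.borelSubgroup F := by
  obtain ⟨b, hb, n, hn, w, hwW, hw, u, hu, rfl⟩ := SG.exists_normal_form hg
  have hup : u ∈ chevG2.posUnipotent F := SG.genBy_le_pos _ hu
  have hge : ∀ r ∈ ([9, 4, 3] : List ℕ), ∀ h : r < chevG2.nroots,
      r ≤ ((w ⟨r, h⟩ : Fin chevG2.nroots) : ℕ) := by
    intro r hr h
    obtain ⟨c, hc⟩ := hfix r hr
    by_contra hlt
    set s : Fin chevG2.nroots := ⟨r, h⟩ with hs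
    obtain ⟨d, hd, en⟩ := SG.mono_ev hn hw s
    set a : chevG2.Idx := Sum.inr (w s)
    have e1 : ((n * u : GL chevG2.Idx F) : Matrix chevG2.Idx chevG2.Idx F) a (Sum.inr s) = d := by
      rw [Units.val_mul, Matrix.mul_apply, Finset.sum_eq_single (Sum.inr s : chevG2.Idx)]
      · rw [SG.uni_of_mem_pos hup _ _ le_rfl, if_pos rfl, mul_one]
        have := congrFun en a
        rwa [ev_eq s.2, mulVec_single_col, Pi.smul_apply, ev_inr, if_pos rfl, smul_eq_mul,
          mul_one] at this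
      · intro x _ hx
        rcases x with j | v
        · rw [SG.mono_hv hn j.2 (w s), zero_mul]
        · obtain ⟨d', -, ed⟩ := SG.mono_ev hn hw v
          have := congrFun ed a
          rw [ev_eq v.2, mulVec_single_col, Pi.smul_apply, ev_inr, if_neg, smul_zero] at this
          · rw [this, zero_mul]
          · intro h
            exact hx (congrArg Sum.inr (w.injective (Fin.ext h)).symm)
      · simp
    have e2 : ((n * u : GL chevG2.Idx F) : Matrix chevG2.Idx chevG2.Idx F) *ᵥ ev chevG2 F r =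
        c • ((b⁻¹ : GL chevG2.Idx F) : Matrix chevG2.Idx chevG2.Idx F) *ᵥ ev chevG2 F r := by
      rw [← mulVec_smul, ← hc, mulVec_mulVec, ← Units.val_mul]
      congr 2
      group
    have e3 := congrFun e2 a
    rw [ev_eq h, mulVec_single_col, Pi.smul_apply, mulVec_single_col, ← hs, e1,
      SG.borel_entry (inv_mem hb) a _ ?_ ?_, smul_zero] at e3
    · exact hd e3
    · show Sys.ht (Sum.inr (w s) : chevG2.Idx) ≤ Sys.ht (Sum.inr s)
      simp only [Sys.ht, Sum.elim_inr]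
      have : ((w s : Fin chevG2.nroots) : ℕ) < r := not_le.1 hlt
      have : (s : ℕ) = r := rfl
      split_ifs <;> omega
    · intro h'
      exact hlt (le_of_eq (congrArg Fin.val (Sum.inr_injective h')).symm)
  obtain ⟨L, hL, rfl⟩ := G2Even.weyl_words hwW
  obtain rfl : L = [] := words_ge.{u} L hL hge
  refine mul_mem (mul_mem hb ?_) ((le_sup_left : chevG2.posUnipotent F ≤ chevG2.borelSubgroup F) hup)
  exact (le_sup_right : chevG2.diagonalSubgroup F ≤ chevG2.borelSubgroup F)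
    (SG.mem_diag_of_pos hn hw fun r hr => by simpa using hr)

/-- A word of the reflection in the highest root. -/
def topWord : List ℕ := [1, 0, 1, 0, 1]

theorem top_table :
    (List.ofFn fun r : Fin chevG2.nroots => ((SG.{u}.wprod topWord r : Fin chevG2.nroots) : ℕ)) =
      [11, 6, 8, 9, 4, 10, 1, 7, 2, 3, 5, 0] := by decide +kernel

theorem top_apply (r : Fin chevG2.nroots) :
    ((SG.{u}.wprod topWord r : Fin chevG2.nroots) : ℕ) =
      ([11, 6, 8, 9, 4, 10, 1, 7, 2, 3, 5, 0] : List ℕ).getD (r : ℕ) 0 := by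
  rw [← top_table.{u}]; simp [List.getD_eq_getElem?_getD, r.2]

theorem flips_top : ∀ r, r < 12 → 6 ≤ r → r ≠ 7 →
    ([11, 6, 8, 9, 4, 10, 1, 7, 2, 3, 5, 0] : List ℕ).getD r 0 < 6 := by decide +kernel

theorem table_vals : chevG2.neg 7 = 4 ∧ cor chevG2 7 0 = 1 := by decide +kernel

theorem torus_of_fixLines {g : GL chevG2.Idx F} (hg : g ∈ chevG2.group F) (hfix : FixLines g) :
    g ∈ chevG2.diagonalSubgroup F := by
  classical
  obtain ⟨u, hu, h, hh, rfl⟩ := SG.mem_borel_iff.1 (mem_borel hg hfix)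
  have hfu : FixLines u := by
    intro r hr
    obtain ⟨c, hc⟩ := hfix r hr
    obtain ⟨d, hd, ed⟩ := SG.diag_ev_eq hh r
    refine ⟨c * d⁻¹, ?_⟩
    rw [Units.val_mul, ← mulVec_mulVec, ed, mulVec_smul] at hc
    rw [mul_comm, ← smul_smul, ← hc, smul_smul, inv_mul_cancel₀ hd, one_smul]
  have hug : u ∈ chevG2.group F := SG.pos_le_group hu
  have hL : ∀ q ∈ topWord, q < chevG2.rank := by decide +kernel
  set N : GL chevG2.Idx F := SG.nw F topWord with hN
  have hNm : N ∈ chevG2.monomialSubgroup F := SG.nw_mem_mono hL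
  have hNa : SG.Acts N (SG.wprod topWord) := SG.acts_nw hL
  have hfN : FixLines (N * u * N⁻¹) := by
    intro r hr
    obtain ⟨s, hs, hs'⟩ : ∃ s : Fin chevG2.nroots, (s : ℕ) ∈ ([9, 4, 3] : List ℕ) ∧
        ((SG.{u}.wprod topWord s : Fin chevG2.nroots) : ℕ) = r := by
      fin_cases hr
      · exact ⟨⟨3, by decide⟩, by simp, by rw [top_apply]; rfl⟩
      · exact ⟨⟨4, by decide⟩, by simp, by rw [top_apply]; rfl⟩
      · exact ⟨⟨9, by decide⟩, by simp, by rw [top_apply]; rfl⟩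
    obtain ⟨d, hd, ed⟩ := SG.mono_ev hNm hNa s
    obtain ⟨c, hc⟩ := hfu s hs
    rw [hs'] at ed
    refine ⟨c, ?_⟩
    have hinv : ((N⁻¹ : GL chevG2.Idx F) : Matrix chevG2.Idx chevG2.Idx F) *ᵥ ev chevG2 F r =
        d⁻¹ • ev chevG2 F s := by
      rw [eq_inv_smul_iff₀ hd, ← mulVec_smul, ← ed, mulVec_mulVec, ← Units.val_mul, inv_mul_cancel,
        Units.val_one, one_mulVec]
    rw [Units.val_mul, Units.val_mul, ← mulVec_mulVec, hinv, mulVec_smul, ← mulVec_mulVec, hc,
      mulVec_smul, ed, smul_smul, smul_smul]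
    congr 1
    field_simp
  have hNu : N * u * N⁻¹ ∈ chevG2.borelSubgroup F :=
    mem_borel (mul_mem (mul_mem (SG.mono_le_group hNm) hug) (inv_mem (SG.mono_le_group hNm))) hfN
  rw [SG.posUnipotent_eq] at hu
  obtain ⟨a, ha, c, hc, rfl⟩ := SG.exists_split (fun r => ¬ Sys.FlipsNeg (SG.wprod topWord) r) le_rfl hu
  have hc' : c ∈ SG.uminus F (SG.wprod topWord) := SG.genBy_mono (fun r _ _ h => not_not.1 h) hc
  have hc1 : c = 1 := by
    have h1 := SG.notflips_conj_pos hNa ha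
    have h2 := SG.uminus_conj_neg hNa hc'
    have h3 : N * c * N⁻¹ ∈ chevG2.borelSubgroup F := by
      rw [show N * c * N⁻¹ = (N * a * N⁻¹)⁻¹ * (N * (a * c) * N⁻¹) by group]
      exact mul_mem (inv_mem ((le_sup_left : chevG2.posUnipotent F ≤ chevG2.borelSubgroup F) h1)) hNu
    have h4 := Subgroup.mem_inf.2 ⟨h3, h2⟩
    rw [SG.borel_inf_neg, Subgroup.mem_bot] at h4
    rwa [conj_eq_one_iff] at h4
  subst hc1
  rw [mul_one] at hfu ⊢
  obtain ⟨t, rfl⟩ : ∃ t, a = SG.xU 7 t := by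
    suffices SG.genBy F (fun r => ¬ Sys.FlipsNeg (SG.wprod topWord) r) ≤ chevG2.rootSubgroup F 7 by
      have := this ha
      rw [SG.rootSubgroup_eq] at this
      clear! hug hfix hfu hNu hfN ha hu hg
      induction this using Subgroup.closure_induction with
      | mem x hx => obtain ⟨t, rfl⟩ := hx; exact ⟨t, rfl⟩
      | one => exact ⟨0, (SG.xU_zero 7).symm⟩
      | mul x y _ _ hx hy =>
        obtain ⟨s, rfl⟩ := hx; obtain ⟨t, rfl⟩ := hy; exact ⟨s + t, SG.xU_add 7 s t⟩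
      | inv x _ hx => obtain ⟨s, rfl⟩ := hx; exact ⟨-s, SG.xU_inv 7 s⟩
    refine SG.genBy_le fun r h1 h2 h3 t => ?_
    obtain rfl : r = 7 := by
      by_contra hne
      refine h3 ⟨h2, ?_⟩
      rw [top_apply]
      exact flips_top r h2 h1 hne
    rw [SG.rootSubgroup_eq]; exact Subgroup.subset_closure ⟨t, rfl⟩
  obtain ⟨c, hc⟩ := hfu 4 (by simp)
  have e := congrFun hc (Sum.inr (⟨7, by decide⟩ : Fin chevG2.nroots))
  rw [Sys.coe_xU, show (4 : ℕ) = chevG2.neg 7 from table_vals.1.symm, SG.x_ev_neg 7 (by decide),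
    table_vals.1] at e
  simp [Finset.sum_apply, hv_inr, ev_inr] at e
  rw [e, Sys.xU_zero, one_mul]
  exact hh

theorem chi_vec : SG.{u}.vec 9 0 = 2 ∧ SG.{u}.vec 9 1 = 1 ∧ SG.{u}.vec 4 0 = -1 ∧ SG.{u}.vec 4 1 = 0 ∧
    SG.{u}.vec 3 0 = -1 ∧ SG.{u}.vec 3 1 = -1 := by decide +kernel

theorem chi_two (z : ℕ → Fˣ) (r : ℕ) : SG.chi z r = z 0 ^ SG.{u}.vec r 0 * z 1 ^ SG.{u}.vec r 1 := by
  show ∏ i ∈ Finset.range 2, z i ^ SG.{u}.vec r i = _
  rw [Finset.prod_range_succ, Finset.prod_range_one]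

theorem chi_prod (z : ℕ → Fˣ) : SG.chi z 9 * SG.chi z 4 * SG.chi z 3 = 1 := by
  obtain ⟨a, b, c, d, e, f⟩ := chi_vec.{u}
  rw [chi_two, chi_two, chi_two, a, b, c, d, e, f]
  refine Units.ext ?_
  simp
  field_simp

theorem dg_eq_one {z : ℕ → Fˣ} (h4 : SG.chi z 4 = 1) (h3 : SG.chi z 3 = 1) : SG.dg z = 1 := by
  obtain ⟨a, b, c, d, e, f⟩ := chi_vec.{u}
  rw [chi_two, c, d] at h4
  rw [chi_two, e, f] at h3
  simp only [_root_.zpow_neg, zpow_one, zpow_zero, mul_one, inv_eq_one] at h4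
  simp only [h4, _root_.zpow_neg, zpow_one, inv_one, one_mul, inv_eq_one] at h3
  rw [show (1 : GL chevG2.Idx F) = SG.dg 1 from (map_one SG.dgHom).symm]
  refine SG.dg_congr fun i hi => ?_
  have h2 : i < 2 := hi
  interval_cases i
  · exact h4
  · exact h3

end CfsgLib.Chev.G2Singer
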